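import Cfsg.Agent.H740.OreM.SuzThree
import Cfsg.Agent.H266.TC.SuzPairDat
import Cfsg.Agent.S1694

/-!
# Two conjugates of an element of order 3 of `Suz` (helper266)

`pair` : for `g` of order 3 and an involution `k` of `Suz` there is `c` such that `⟨g, c g c⁻¹⟩` contains a conjugate of `k`.
-/

set_option autoImplicit false
set_option maxRecDepth 1000000
set_option exponentiation.threshold 5000

namespace Cfsg.Agent.H266.TC.SuzPair

open Cfsg Cfsg.Spor Cfsg.Agent.H123.Cls Cfsg.Agent.H123.Cls.SuzDat Cfsg.Agent.Lib.BitNet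
open Cfsg.Agent.H740.OreM.SuzThree
open Cfsg.Agent.Lib.BitNetSimple (force force_eq)
open Cfsg.Agent.H763.Ore.SuzModel (A N A_conj card_A card_N N_le_A T_inv T_conj)
open Cfsg.Agent.OddHalf.Table.SuzNets (nT)
open Cfsg.Agent.OddHalf.Table.SuzGraph (T okT)
open Cfsg.Agent.OddHalf.Table.OutSuz (T_sq)
open Cfsg.Agent.OddHalf.Table.SuzRep (ψ ψ_val ψ_injective)
open Cfsg.Agent.SporadicRecognition.SuzOrder (el)
open Subgroup (closure)

/-- two involutions whose product has odd order (copy of helper740's lemma) -/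
theorem conj_of_odd {G : Type*} [Group G] {a b : G} (ha : a * a = 1) (hb : b * b = 1) {m : ℕ}
    (hm : (a * b) ^ (2 * m + 1) = 1) : ∃ g : G, g * b * g⁻¹ = a := by
  refine ⟨b * (a * b) ^ m, ?_⟩
  have hai : a⁻¹ = a := inv_eq_of_mul_eq_one_left ha
  have hbi : b⁻¹ = b := inv_eq_of_mul_eq_one_left hb
  have h1 : b * ((a * b) ^ m)⁻¹ * b = (a * b) ^ m := by
    have h2 : b * (a * b)⁻¹ * b⁻¹ = a * b := by
      rw [mul_inv_rev, hai, hbi]
      calc b * (b * a) * b = (b * b) * a * b := by group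
        _ = a * b := by rw [hb, one_mul]
    calc b * ((a * b) ^ m)⁻¹ * b = b * ((a * b)⁻¹) ^ m * b⁻¹ := by rw [inv_pow, hbi]
      _ = (b * (a * b)⁻¹ * b⁻¹) ^ m := by rw [conj_pow]
      _ = (a * b) ^ m := by rw [h2]
  have h3 : (a * b) ^ m * b * ((a * b) ^ m)⁻¹ = (a * b) ^ m * (a * b) ^ m * b := by
    calc (a * b) ^ m * b * ((a * b) ^ m)⁻¹ = (a * b) ^ m * (b * ((a * b) ^ m)⁻¹ * b) * b⁻¹ := by group
      _ = (a * b) ^ m * (a * b) ^ m * b := by rw [h1, hbi]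
  have h4 : (a * b) ^ m * (a * b) ^ m = b * a := by
    have h5 : (a * b) ^ m * (a * b) ^ m * (a * b) = 1 := by
      rw [← pow_add, ← pow_succ, ← two_mul]; exact hm
    rw [mul_eq_one_iff_eq_inv.1 h5, mul_inv_rev, hai, hbi]
  calc b * (a * b) ^ m * b * (b * (a * b) ^ m)⁻¹ = b * ((a * b) ^ m * b * ((a * b) ^ m)⁻¹) * b⁻¹ := by group
    _ = b * (b * a * b) * b := by rw [h3, h4, hbi]
    _ = (b * b) * a * (b * b) := by group
    _ = a := by rw [hb, one_mul, mul_one]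

/-! ### Words -/

/-- the generators -/
noncomputable def G (i : ℕ) : Suz := el ([i].map gn)

theorem G_gn (i : ℕ) : G i = PresentedGroup.of (gn i) := by
  unfold G
  simp only [el, List.map_cons, List.map_nil, List.prod_cons, List.prod_nil, mul_one]

theorem e0 : eqw [0, 0] [] = true := by decide +kernel
theorem e1 : eqw [1, 1] [] = true := by decide +kernel
theorem e2 : eqw [2, 2] [] = true := by decide +kernel
theorem e3 : eqw [3, 3] [] = true := by decide +kernel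
theorem e4 : eqw [4, 4] [] = true := by decide +kernel
theorem e5 : eqw [5, 5] [] = true := by decide +kernel
theorem e6 : eqw [6, 6] [] = true := by decide +kernel

theorem sq_of {i : ℕ} (h : eqw [i, i] [] = true) : G i * G i = 1 := by
  have := eq_of_eqw h
  rwa [show [i, i] = [i] ++ [i] from rfl, el_append, el_nil] at this

theorem G_sq (i : ℕ) : G i * G i = 1 := by
  rcases i with _ | _ | _ | _ | _ | _ | i
  · exact sq_of e0
  · exact sq_of e1
  · exact sq_of e2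
  · exact sq_of e3
  · exact sq_of e4
  · exact sq_of e5
  · have h : G (i + 1 + 1 + 1 + 1 + 1 + 1) = G 6 := by
      rw [G_gn, G_gn]
      rfl
    rw [h]
    exact sq_of e6

/-- the value of a word -/
noncomputable def ew (l : List ℕ) : Suz := el (l.map gn)

theorem ew_append (l m : List ℕ) : ew (l ++ m) = ew l * ew m := el_append l m

theorem ew_nil : ew [] = 1 := rfl

theorem ew_single (i : ℕ) : ew [i] = G i := rfl

theorem ew_rev : ∀ l : List ℕ, ew l.reverse = (ew l)⁻¹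
  | [] => by rw [List.reverse_nil, ew_nil, inv_one]
  | i :: l => by
    rw [List.reverse_cons, ew_append, ew_rev l, ew_single, show i :: l = [i] ++ l from rfl, ew_append, ew_single,
      mul_inv_rev, inv_eq_of_mul_eq_one_left (G_sq i)]

theorem cmw_eq (P : ℕ) (a b : List ℕ) : cmw (P, a, b) = ew (a ++ b ++ a.reverse ++ b.reverse) := by
  rw [ew_append, ew_append, ew_append, ew_rev, ew_rev]
  rfl

/-! ### Iteration -/

/-- `j` times `F` -/
noncomputable def itf (F : ℕ → ℕ) (j : ℕ) : ℕ → ℕ :=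
  Nat.rec (fun p => p) (fun _ ih p => force (F p) ih) j

theorem itf_succ (F : ℕ → ℕ) (j p : ℕ) : itf F (j + 1) p = itf F j (F p) := by
  show force (F p) (itf F j) = _
  rw [force_eq]

theorem itf_eq {F : ℕ → ℕ} {r : Equiv.Perm (Fin 1782)} (hr : ∀ p : Fin 1782, (r p : ℕ) = F p) :
    ∀ (j : ℕ) (p : Fin 1782), itf F j p = ((r ^ j) p : Fin 1782)
  | 0, _ => rfl
  | j + 1, p => by
    rw [itf_succ, ← hr, itf_eq hr j, pow_succ, Equiv.Perm.mul_apply]

theorem pow_eq_one_of {F : ℕ → ℕ} {r : Equiv.Perm (Fin 1782)} (hr : ∀ p : Fin 1782, (r p : ℕ) = F p) {j : ℕ}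
    (h : allN (fun p => Nat.beq (itf F j p) p) 1782 = true) : r ^ j = 1 := by
  apply Equiv.ext
  intro p
  apply Fin.ext
  rw [← itf_eq hr j p]
  exact Nat.eq_of_beq_eq_true ((allN_iff _ _).1 h p p.2)

/-- the table `P` is the table of the word `l` -/
noncomputable def chkT (l : List ℕ) (P : ℕ) : Bool :=
  band (chkL 7 l) (allN (fun p => Nat.beq (evw 11 gens l p) (lk 11 P p)) 1782)

theorem tab_of {l : List ℕ} {P : ℕ} (h : chkT l P = true) (p : Fin 1782) : (ψ (ew l) p : ℕ) = lk 11 P p := by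
  obtain ⟨h1, h2⟩ := band_true h
  rw [ew, ev_tab l (chkL_iff _ l h1)]
  exact Nat.eq_of_beq_eq_true ((allN_iff _ _).1 h2 p p.2)

/-- `(k ^ n) b`, `k` with table `P`, `b` the word `w` -/
noncomputable def stp (P n : ℕ) (w : List ℕ) (p : ℕ) : ℕ := force (evw 11 gens w p) (it 11 P n)

/-- the check of the dihedral group -/
noncomputable def chkD (l : List ℕ) (P n s : ℕ) (e : List ℕ) (m : ℕ) : Bool :=
  band (chkT l P) (band (chkL 7 (e ++ [s] ++ e.reverse)) (band (allN (fun p => Nat.beq (itf (it 11 P n) 2 p) p) 1782)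
    (allN (fun p => Nat.beq (itf (stp P n (e ++ [s] ++ e.reverse)) (2 * m + 1) p) p) 1782)))

theorem conj_of {l : List ℕ} {P n s : ℕ} {e : List ℕ} {m : ℕ} (h : chkD l P n s e m = true) :
    ∃ g : Suz, g * G s * g⁻¹ = (ew l) ^ n := by
  obtain ⟨h1, h⟩ := band_true h
  obtain ⟨h2, h⟩ := band_true h
  obtain ⟨h3, h4⟩ := band_true h
  have ht := tab_of h1
  have hk : ∀ p : Fin 1782, ((ψ (ew l) ^ n) p : ℕ) = it 11 P n p := fun p => (it_eq ht n p).symm
  have hk2 : (ew l) ^ n * (ew l) ^ n = 1 := by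
    apply ψ_injective
    rw [map_one, map_mul, map_pow, ← pow_two]
    exact pow_eq_one_of hk h3
  set b := ew e * G s * (ew e)⁻¹ with hb
  have hbe : b = ew (e ++ [s] ++ e.reverse) := by
    rw [ew_append, ew_append, ew_rev, ew_single]
  have hb2 : b * b = 1 := by
    rw [hb]
    calc ew e * G s * (ew e)⁻¹ * (ew e * G s * (ew e)⁻¹) = ew e * (G s * G s) * (ew e)⁻¹ := by group
      _ = 1 := by rw [G_sq]; group
  have hm : ((ew l) ^ n * b) ^ (2 * m + 1) = 1 := by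
    apply ψ_injective
    rw [map_one, map_pow]
    refine pow_eq_one_of (F := stp P n (e ++ [s] ++ e.reverse)) (fun p => ?_) h4
    rw [map_mul, map_pow, Equiv.Perm.mul_apply, hk, hbe]
    rw [show ew (e ++ [s] ++ e.reverse) = el ((e ++ [s] ++ e.reverse).map gn) from rfl, ev_tab _ (chkL_iff _ _ h2)]
    rw [stp, force_eq]
  obtain ⟨g, hg⟩ := conj_of_odd hk2 hb2 hm
  refine ⟨g * ew e, ?_⟩
  rw [← hg, hb]
  group

/-! ### The outer involution -/

theorem T_tab (p : Fin 1782) : (T p : ℕ) = lk 11 tT p := by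
  have h : allN (fun i => Nat.beq (Lib.BitNetSimple.appF nT i) (lk 11 tT i)) 1782 = true := by decide +kernel
  have h1 := Nat.eq_of_beq_eq_true ((allN_iff _ _).1 h p p.2)
  rw [Lib.BitNetSimple.appF_eq] at h1
  rw [← h1]
  rfl

/-- `p ↦ T (G s p)` -/
noncomputable def stT (P p : ℕ) : ℕ := force (lk 11 P p) (lk 11 tT)

theorem Tc : allN (fun p => Nat.beq (itf (stT tc) 10 p) p) 1782 = true := by decide +kernel
theorem Td : allN (fun p => Nat.beq (itf (stT td) 10 p) p) 1782 = true := by decide +kernel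

theorem T_mul_self : T * T = 1 := by rw [← pow_two]; exact T_sq

theorem T_conj_of {s : ℕ} (hs : s < 7) {P : ℕ} (hP : nth gens s = P)
    (h : allN (fun p => Nat.beq (itf (stT P) 10 p) p) 1782 = true) :
    ∃ m : Suz, T * ψ (G s) * T⁻¹ = ψ (m * G s * m⁻¹) := by
  have h1 : (T * ψ (G s)) ^ 10 = 1 := by
    refine pow_eq_one_of (fun p => ?_) h
    rw [Equiv.Perm.mul_apply, T_tab, G_gn, gn_tab hs, hP, stT, force_eq]
  obtain ⟨v, hv⟩ : ∃ v : Suz, ψ v = T * ψ (G s) * T⁻¹ := T_conj (⟨G s, rfl⟩ : ψ (G s) ∈ N)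
  have hTi : T⁻¹ = T := inv_eq_of_mul_eq_one_left T_mul_self
  have hv2 : v * v = 1 := by
    apply ψ_injective
    rw [map_mul, hv, map_one]
    calc T * ψ (G s) * T⁻¹ * (T * ψ (G s) * T⁻¹) = T * (ψ (G s) * ψ (G s)) * T⁻¹ := by group
      _ = 1 := by rw [← map_mul, G_sq, map_one]; group
  have h5 : (v * G s) ^ (2 * 2 + 1) = 1 := by
    apply ψ_injective
    rw [map_pow, map_mul, hv, map_one, hTi]
    calc (T * ψ (G s) * T * ψ (G s)) ^ (2 * 2 + 1) = ((T * ψ (G s)) ^ 2) ^ 5 := by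
          rw [pow_two]
          simp only [mul_assoc]
      _ = 1 := by rw [← pow_mul]; exact h1
  obtain ⟨g, hg⟩ := conj_of_odd hv2 (G_sq s) h5
  exact ⟨g, by rw [hg, hv]⟩

theorem T_conj2 : ∃ m : Suz, T * ψ (G 2) * T⁻¹ = ψ (m * G 2 * m⁻¹) := T_conj_of (by norm_num) rfl Tc

theorem T_conj3 : ∃ m : Suz, T * ψ (G 3) * T⁻¹ = ψ (m * G 3 * m⁻¹) := T_conj_of (by norm_num) rfl Td

/-- the elements of `Suz : 2` -/
def B : Subgroup (Equiv.Perm (Fin 1782)) where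
  carrier := {b | ∃ n : Suz, b = ψ n ∨ b = ψ n * T}
  one_mem' := ⟨1, Or.inl (map_one _).symm⟩
  mul_mem' := by
    rintro _ _ ⟨n, rfl | rfl⟩ ⟨m, rfl | rfl⟩
    · exact ⟨n * m, Or.inl (map_mul _ _ _).symm⟩
    · exact ⟨n * m, Or.inr (by rw [map_mul, mul_assoc])⟩
    · obtain ⟨m', hm'⟩ := T_conj (⟨m, rfl⟩ : ψ m ∈ N)
      refine ⟨n * m', Or.inr ?_⟩
      rw [map_mul, hm']
      group
    · obtain ⟨m', hm'⟩ := T_conj (⟨m, rfl⟩ : ψ m ∈ N)
      refine ⟨n * m', Or.inl ?_⟩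
      have hTi : T⁻¹ = T := inv_eq_of_mul_eq_one_left T_mul_self
      rw [map_mul, hm', hTi]
      group
  inv_mem' := by
    rintro _ ⟨n, rfl | rfl⟩
    · exact ⟨n⁻¹, Or.inl (map_inv _ _).symm⟩
    · obtain ⟨m', hm'⟩ := T_conj (⟨n⁻¹, rfl⟩ : ψ n⁻¹ ∈ N)
      have hTi : T⁻¹ = T := inv_eq_of_mul_eq_one_left T_mul_self
      refine ⟨m', Or.inr ?_⟩
      rw [hm', map_inv, mul_inv_rev, inv_mul_cancel_right, hTi]

theorem A_le_B : A ≤ B := by
  refine sup_le ?_ ?_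
  · rintro _ ⟨g, rfl⟩
    exact ⟨g, Or.inl rfl⟩
  · rw [Subgroup.zpowers_le]
    exact ⟨1, Or.inr (by rw [map_one, one_mul])⟩

theorem conjA {s : ℕ} (hs : ∃ m : Suz, T * ψ (G s) * T⁻¹ = ψ (m * G s * m⁻¹)) {b : Equiv.Perm (Fin 1782)}
    (hb : b ∈ A) : ∃ n : Suz, b * ψ (G s) * b⁻¹ = ψ (n * G s * n⁻¹) := by
  obtain ⟨m, hm⟩ := hs
  obtain ⟨n, rfl | rfl⟩ := A_le_B hb
  · exact ⟨n, by simp only [map_mul, map_inv]⟩
  · refine ⟨n * m, ?_⟩
    have h1 : ψ n * T * ψ (G s) * (ψ n * T)⁻¹ = ψ n * (T * ψ (G s) * T⁻¹) * (ψ n)⁻¹ := by group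
    rw [h1, hm]
    simp only [map_mul, map_inv]
    group

/-! ### The involutions -/

theorem ms2 : Nat.beq (it 11 p2 2 0) 0 = false := by decide +kernel
theorem ms3 : Nat.beq (it 11 p3 2 0) 0 = false := by decide +kernel
theorem ms4 : Nat.beq (it 11 p4 2 0) 0 = false := by decide +kernel
theorem ms5 : Nat.beq (it 11 p5 2 0) 0 = false := by decide +kernel
theorem ms6 : Nat.beq (it 11 p6 2 1) 1 = false := by decide +kernel
theorem ms7 : Nat.beq (it 11 p7 2 0) 0 = false := by decide +kernel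
theorem ms8 : Nat.beq (it 11 p8 2 0) 0 = false := by decide +kernel
theorem ms9 : Nat.beq (it 11 p9 2 0) 0 = false := by decide +kernel
theorem ms10 : Nat.beq (it 11 p10 2 0) 0 = false := by decide +kernel
theorem ms11 : Nat.beq (it 11 p11 2 0) 0 = false := by decide +kernel
theorem ms12 : Nat.beq (it 11 p12 2 1) 1 = false := by decide +kernel
theorem ms13 : Nat.beq (it 11 p13 2 1) 1 = false := by decide +kernel
theorem ms14 : Nat.beq (it 11 p14 2 1) 1 = false := by decide +kernel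
theorem ms15 : Nat.beq (it 11 p15 2 0) 0 = false := by decide +kernel
theorem ms16 : Nat.beq (it 11 p16 2 1) 1 = false := by decide +kernel
theorem ms17 : Nat.beq (it 11 p17 2 0) 0 = false := by decide +kernel
theorem ms18 : Nat.beq (it 11 p18 2 0) 0 = false := by decide +kernel
theorem ms19 : Nat.beq (it 11 p19 2 0) 0 = false := by decide +kernel
theorem ms20 : Nat.beq (it 11 p20 2 0) 0 = false := by decide +kernel
theorem ms21 : Nat.beq (it 11 p21 2 0) 0 = false := by decide +kernel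
theorem ms22 : Nat.beq (it 11 p22 2 0) 0 = false := by decide +kernel
theorem ms23 : Nat.beq (it 11 p23 2 0) 0 = false := by decide +kernel
theorem ms24 : Nat.beq (it 11 p24 2 2) 2 = false := by decide +kernel
theorem ms25 : Nat.beq (it 11 p25 2 1) 1 = false := by decide +kernel
theorem ms26 : Nat.beq (it 11 p26 2 0) 0 = false := by decide +kernel
theorem ms27 : Nat.beq (it 11 p27 2 0) 0 = false := by decide +kernel
theorem ms28 : Nat.beq (it 11 p28 2 2) 2 = false := by decide +kernel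
theorem ms29 : Nat.beq (it 11 p29 2 0) 0 = false := by decide +kernel
theorem ms30 : Nat.beq (it 11 p30 2 1) 1 = false := by decide +kernel
theorem ms32 : Nat.beq (it 11 p32 2 0) 0 = false := by decide +kernel
theorem ms33 : Nat.beq (it 11 p33 2 1) 1 = false := by decide +kernel
theorem ms34 : Nat.beq (it 11 p34 2 1) 1 = false := by decide +kernel
theorem ms35 : Nat.beq (it 11 p35 2 2) 2 = false := by decide +kernel
theorem ms36 : Nat.beq (it 11 p36 2 4) 4 = false := by decide +kernel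

/-- the involutions -/
noncomputable def W2 : List (ℕ × List ℕ × List ℕ) := [(p0, [5], [6]), (p1, [0], [0]),
  (p31, [3], [2, 1, 4, 6, 1, 5, 1, 2])]

theorem W_mv2 : ∀ x ∈ W, x ∈ W2 ∨ ∃ t : Fin 1782, Nat.beq (it 11 x.1 2 t) t = false :=
  List.forall_mem_cons.2 ⟨Or.inl (List.mem_cons_self),
  List.forall_mem_cons.2 ⟨Or.inl (List.mem_cons_of_mem _ List.mem_cons_self),
  List.forall_mem_cons.2 ⟨Or.inr ⟨⟨0, by norm_num⟩, ms2⟩,
  List.forall_mem_cons.2 ⟨Or.inr ⟨⟨0, by norm_num⟩, ms3⟩,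
  List.forall_mem_cons.2 ⟨Or.inr ⟨⟨0, by norm_num⟩, ms4⟩,
  List.forall_mem_cons.2 ⟨Or.inr ⟨⟨0, by norm_num⟩, ms5⟩,
  List.forall_mem_cons.2 ⟨Or.inr ⟨⟨1, by norm_num⟩, ms6⟩,
  List.forall_mem_cons.2 ⟨Or.inr ⟨⟨0, by norm_num⟩, ms7⟩,
  List.forall_mem_cons.2 ⟨Or.inr ⟨⟨0, by norm_num⟩, ms8⟩,
  List.forall_mem_cons.2 ⟨Or.inr ⟨⟨0, by norm_num⟩, ms9⟩,
  List.forall_mem_cons.2 ⟨Or.inr ⟨⟨0, by norm_num⟩, ms10⟩,
  List.forall_mem_cons.2 ⟨Or.inr ⟨⟨0, by norm_num⟩, ms11⟩,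
  List.forall_mem_cons.2 ⟨Or.inr ⟨⟨1, by norm_num⟩, ms12⟩,
  List.forall_mem_cons.2 ⟨Or.inr ⟨⟨1, by norm_num⟩, ms13⟩,
  List.forall_mem_cons.2 ⟨Or.inr ⟨⟨1, by norm_num⟩, ms14⟩,
  List.forall_mem_cons.2 ⟨Or.inr ⟨⟨0, by norm_num⟩, ms15⟩,
  List.forall_mem_cons.2 ⟨Or.inr ⟨⟨1, by norm_num⟩, ms16⟩,
  List.forall_mem_cons.2 ⟨Or.inr ⟨⟨0, by norm_num⟩, ms17⟩,
  List.forall_mem_cons.2 ⟨Or.inr ⟨⟨0, by norm_num⟩, ms18⟩,
  List.forall_mem_cons.2 ⟨Or.inr ⟨⟨0, by norm_num⟩, ms19⟩,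
  List.forall_mem_cons.2 ⟨Or.inr ⟨⟨0, by norm_num⟩, ms20⟩,
  List.forall_mem_cons.2 ⟨Or.inr ⟨⟨0, by norm_num⟩, ms21⟩,
  List.forall_mem_cons.2 ⟨Or.inr ⟨⟨0, by norm_num⟩, ms22⟩,
  List.forall_mem_cons.2 ⟨Or.inr ⟨⟨0, by norm_num⟩, ms23⟩,
  List.forall_mem_cons.2 ⟨Or.inr ⟨⟨2, by norm_num⟩, ms24⟩,
  List.forall_mem_cons.2 ⟨Or.inr ⟨⟨1, by norm_num⟩, ms25⟩,
  List.forall_mem_cons.2 ⟨Or.inr ⟨⟨0, by norm_num⟩, ms26⟩,
  List.forall_mem_cons.2 ⟨Or.inr ⟨⟨0, by norm_num⟩, ms27⟩,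
  List.forall_mem_cons.2 ⟨Or.inr ⟨⟨2, by norm_num⟩, ms28⟩,
  List.forall_mem_cons.2 ⟨Or.inr ⟨⟨0, by norm_num⟩, ms29⟩,
  List.forall_mem_cons.2 ⟨Or.inr ⟨⟨1, by norm_num⟩, ms30⟩,
  List.forall_mem_cons.2 ⟨Or.inl (List.mem_cons_of_mem _ (List.mem_cons_of_mem _ List.mem_cons_self)),
  List.forall_mem_cons.2 ⟨Or.inr ⟨⟨0, by norm_num⟩, ms32⟩,
  List.forall_mem_cons.2 ⟨Or.inr ⟨⟨1, by norm_num⟩, ms33⟩,
  List.forall_mem_cons.2 ⟨Or.inr ⟨⟨1, by norm_num⟩, ms34⟩,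
  List.forall_mem_cons.2 ⟨Or.inr ⟨⟨2, by norm_num⟩, ms35⟩,
  List.forall_mem_cons.2 ⟨Or.inr ⟨⟨4, by norm_num⟩, ms36⟩,
  List.forall_mem_nil _⟩⟩⟩⟩⟩⟩⟩⟩⟩⟩⟩⟩⟩⟩⟩⟩⟩⟩⟩⟩⟩⟩⟩⟩⟩⟩⟩⟩⟩⟩⟩⟩⟩⟩⟩⟩⟩

theorem d0 : chkD [5, 6, 5, 6] p0 1 2 [1, 0, 1] 1 = true := by decide +kernel
theorem d31 : chkD [3, 2, 1, 4, 6, 1, 5, 1, 2, 3, 2, 1, 5, 1, 6, 4, 1, 2] p31 1 3 [2, 1, 3, 2] 5 = true := by
  decide +kernel

/-- **The two classes of involutions.** -/
theorem inv_cases {k : Suz} (hk : k * k = 1) (hk1 : k ≠ 1) :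
    ∃ n : Suz, k = n * G 2 * n⁻¹ ∨ k = n * G 3 * n⁻¹ := by
  obtain ⟨y, hy, b, hb, h⟩ := words_cover k
  have hc : ψ k = b * ψ (cmw y) * b⁻¹ := h
  have htab : ∀ p : Fin 1782, (ψ (cmw y) p : ℕ) = lk 11 y.1 p := comm_tab (W_chk y hy)
  have hy2 : (cmw y) ^ 2 = 1 := by
    apply ψ_injective
    rw [map_pow, map_one]
    have h1 : ψ (cmw y) = b⁻¹ * ψ k * b := by rw [hc]; group
    rw [h1, pow_two]
    calc b⁻¹ * ψ k * b * (b⁻¹ * ψ k * b) = b⁻¹ * (ψ k * ψ k) * b := by group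
      _ = 1 := by rw [← map_mul, hk, map_one]; group
  rcases W_mv2 y hy with h5 | ⟨t, ht⟩
  · simp only [W2, List.mem_cons, List.not_mem_nil, or_false] at h5
    rcases h5 with rfl | rfl | rfl
    · obtain ⟨g, hg⟩ := conj_of d0
      have h1 : cmw (p0, [5], [6]) = g * G 2 * g⁻¹ := by
        rw [cmw_eq, hg, pow_one]
        rfl
      obtain ⟨n, hn⟩ := conjA T_conj2 (A.mul_mem hb (N_le_A (⟨g, rfl⟩ : ψ g ∈ N)))
      refine ⟨n, Or.inl (ψ_injective ?_)⟩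
      rw [hc, h1, ← hn]
      simp only [map_mul, map_inv]
      group
    · exfalso
      apply hk1
      apply ψ_injective
      have : cmw (p1, [0], [0]) = 1 := by
        unfold cmw
        group
      rw [hc, this, map_one, mul_one, mul_inv_cancel]
    · obtain ⟨g, hg⟩ := conj_of d31
      have h1 : cmw (p31, [3], [2, 1, 4, 6, 1, 5, 1, 2]) = g * G 3 * g⁻¹ := by
        rw [cmw_eq, hg, pow_one]
        rfl
      obtain ⟨n, hn⟩ := conjA T_conj3 (A.mul_mem hb (N_le_A (⟨g, rfl⟩ : ψ g ∈ N)))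
      refine ⟨n, Or.inr (ψ_injective ?_)⟩
      rw [hc, h1, ← hn]
      simp only [map_mul, map_inv]
      group
  · exfalso
    rw [it_eq htab 2 t, ← map_pow, hy2, map_one] at ht
    exact absurd ht (by
      rw [show ((1 : Equiv.Perm (Fin 1782)) t : ℕ) = t from rfl, Nat.beq_refl]
      decide)

/-! ### Pairs -/

/-- `c` conjugates `y` such that the two generate a conjugate of `k` -/
def Pair (y k : Suz) : Prop := ∃ c e : Suz, e * k * e⁻¹ ∈ closure {y, c * y * c⁻¹}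

section words

variable (ly c : List ℕ)

/-- the words in `y` and its conjugate -/
def wz : List ℕ := c ++ ly ++ c.reverse
def wZ : List ℕ := c ++ ly.reverse ++ c.reverse

theorem ew_wz : ew (wz ly c) = ew c * ew ly * (ew c)⁻¹ := by
  rw [wz, ew_append, ew_append, ew_rev]

theorem ew_wZ : ew (wZ ly c) = (ew c * ew ly * (ew c)⁻¹)⁻¹ := by
  rw [wZ, ew_append, ew_append, ew_rev, ew_rev]
  group

theorem mem_y : ew ly ∈ closure {ew ly, ew c * ew ly * (ew c)⁻¹} := Subgroup.subset_closure (Or.inl rfl)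

theorem mem_Y : ew ly.reverse ∈ closure {ew ly, ew c * ew ly * (ew c)⁻¹} := by
  rw [ew_rev]
  exact Subgroup.inv_mem _ (mem_y ly c)

theorem mem_z : ew (wz ly c) ∈ closure {ew ly, ew c * ew ly * (ew c)⁻¹} := by
  rw [ew_wz]
  exact Subgroup.subset_closure (Or.inr rfl)

theorem mem_Z : ew (wZ ly c) ∈ closure {ew ly, ew c * ew ly * (ew c)⁻¹} := by
  rw [ew_wZ]
  exact Subgroup.inv_mem _ (Subgroup.subset_closure (Or.inr rfl))

variable {ly c}

theorem pair_yz {P n s m : ℕ} {e : List ℕ} (h : chkD (ly ++ wz ly c) P n s e m = true) : Pair (ew ly) (G s) := by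
  obtain ⟨g, hg⟩ := conj_of h
  refine ⟨ew c, g, ?_⟩
  rw [hg, ew_append]
  exact Subgroup.pow_mem _ (Subgroup.mul_mem _ (mem_y ly c) (mem_z ly c)) _

theorem pair_yZ {P n s m : ℕ} {e : List ℕ} (h : chkD (ly ++ wZ ly c) P n s e m = true) : Pair (ew ly) (G s) := by
  obtain ⟨g, hg⟩ := conj_of h
  refine ⟨ew c, g, ?_⟩
  rw [hg, ew_append]
  exact Subgroup.pow_mem _ (Subgroup.mul_mem _ (mem_y ly c) (mem_Z ly c)) _

theorem pair_yzYz {P n s m : ℕ} {e : List ℕ} (h : chkD (ly ++ wz ly c ++ ly.reverse ++ wz ly c) P n s e m = true) :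
    Pair (ew ly) (G s) := by
  obtain ⟨g, hg⟩ := conj_of h
  refine ⟨ew c, g, ?_⟩
  rw [hg, ew_append, ew_append, ew_append]
  exact Subgroup.pow_mem _ (Subgroup.mul_mem _ (Subgroup.mul_mem _ (Subgroup.mul_mem _ (mem_y ly c) (mem_z ly c))
    (mem_Y ly c)) (mem_z ly c)) _

theorem pair_yzyZ {P n s m : ℕ} {e : List ℕ} (h : chkD (ly ++ wz ly c ++ ly ++ wZ ly c) P n s e m = true) :
    Pair (ew ly) (G s) := by
  obtain ⟨g, hg⟩ := conj_of h
  refine ⟨ew c, g, ?_⟩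
  rw [hg, ew_append, ew_append, ew_append]
  exact Subgroup.pow_mem _ (Subgroup.mul_mem _ (Subgroup.mul_mem _ (Subgroup.mul_mem _ (mem_y ly c) (mem_z ly c))
    (mem_y ly c)) (mem_Z ly c)) _

end words

theorem c6_54 : chkD ([1, 2, 1, 2] ++ wz [1, 2, 1, 2] [5]) k6_54 1 2 [0, 6, 1] 1 = true := by decide +kernel
theorem c6_42 : chkD ([1, 2, 1, 2] ++ wz [1, 2, 1, 2] [3, 2, 4, 3] ++ ([1, 2, 1, 2] : List ℕ).reverse ++ wz [1, 2, 1, 2] [3, 2, 4, 3]) k6_42 3 3 [4, 3, 2] 1 = true := by decide +kernel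
theorem c36_54 : chkD ([3, 4, 3, 4] ++ wZ [3, 4, 3, 4] [2]) k36_54 2 2 [1, 0, 1] 1 = true := by decide +kernel
theorem c36_42 : chkD ([3, 4, 3, 4] ++ wz [3, 4, 3, 4] [2, 1, 3, 2] ++ [3, 4, 3, 4] ++ wZ [3, 4, 3, 4] [2, 1, 3, 2]) k36_42 1 3 [1, 2, 4] 1 = true := by decide +kernel
theorem c4_54 : chkD ([2, 1, 6, 5, 3, 1, 2, 1, 3, 5, 6, 1] ++ wZ [2, 1, 6, 5, 3, 1, 2, 1, 3, 5, 6, 1] [0]) k4_54 1 2 [1, 0, 1] 1 = true := by decide +kernel
theorem c4_42 : chkD ([2, 1, 6, 5, 3, 1, 2, 1, 3, 5, 6, 1] ++ wz [2, 1, 6, 5, 3, 1, 2, 1, 3, 5, 6, 1] [1, 2, 3, 4]) k4_42 7 3 [2, 4, 3, 2] 3 = true := by decide +kernel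

/-- **Two conjugates of an element of order 3 generate a conjugate of any involution.** -/
theorem pair {g k : Suz} (hg : g ^ 3 = 1) (hg1 : g ≠ 1) (hk : k * k = 1) (hk1 : k ≠ 1) : Pair g k := by
  obtain ⟨y, hy, σ, hgy, htab, hpow⟩ := cases5 (g := g) (k := 1) (by rw [pow_one]; exact hg)
  have hsim : IsSimpleGroup Suz := Cfsg.Agent.S1694.result.1
  have hfin : Finite Suz := Nat.finite_of_card_ne_zero (by
    rw [Cfsg.Agent.SporadicRecognition.SuzOrder.card_Suz]; norm_num)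
  have hinj : Function.Injective σ := by
    rw [← MonoidHom.ker_eq_bot_iff]
    rcases (inferInstance : σ.ker.Normal).eq_bot_or_eq_top with h | h
    · exact h
    · exfalso
      apply hg1
      rw [hgy]
      have : cmw y ∈ σ.ker := by rw [h]; trivial
      exact this
  obtain ⟨k', rfl⟩ := (Finite.injective_iff_surjective.1 hinj) k
  have hk' : k' * k' = 1 := hinj (by rw [map_mul, hk, map_one])
  have hk1' : k' ≠ 1 := fun h => hk1 (by rw [h, map_one])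
  -- it suffices to treat `cmw y` and the generators
  have red : Pair (cmw y) (G 2) → Pair (cmw y) (G 3) → Pair g (σ k') := by
    intro h2 h3
    have h4 : Pair (cmw y) k' := by
      obtain ⟨n, hn | hn⟩ := inv_cases hk' hk1'
      · obtain ⟨c, e, h⟩ := h2
        refine ⟨c, e * n⁻¹, ?_⟩
        rw [hn]
        have h5 : e * n⁻¹ * (n * G 2 * n⁻¹) * (e * n⁻¹)⁻¹ = e * G 2 * e⁻¹ := by group
        rw [h5]
        exact h
      · obtain ⟨c, e, h⟩ := h3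
        refine ⟨c, e * n⁻¹, ?_⟩
        rw [hn]
        have h5 : e * n⁻¹ * (n * G 3 * n⁻¹) * (e * n⁻¹)⁻¹ = e * G 3 * e⁻¹ := by group
        rw [h5]
        exact h
    obtain ⟨c, e, h⟩ := h4
    refine ⟨σ c, σ e, ?_⟩
    have h5 := Subgroup.mem_map_of_mem σ h
    rw [MonoidHom.map_closure, Set.image_pair] at h5
    simp only [map_mul, map_inv] at h5
    rw [hgy]
    exact h5
  simp only [W5, List.mem_cons, List.not_mem_nil, or_false] at hy
  rcases hy with rfl | rfl | rfl | rfl | rfl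
  · exfalso
    apply hg1
    have : cmw (p1, [0], [0]) = 1 := by
      unfold cmw
      group
    rw [hgy, this, map_one]
  · refine red ?_ ?_
    · rw [cmw_eq]
      exact pair_yZ (ly := [2, 1, 6, 5, 3, 1, 2, 1, 3, 5, 6, 1]) c4_54
    · rw [cmw_eq]
      exact pair_yz (ly := [2, 1, 6, 5, 3, 1, 2, 1, 3, 5, 6, 1]) c4_42
  · refine red ?_ ?_
    · rw [cmw_eq]
      exact pair_yz (ly := [1, 2, 1, 2]) c6_54
    · rw [cmw_eq]
      exact pair_yzYz (ly := [1, 2, 1, 2]) c6_42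
  · exfalso
    have h1 := hpow 3 hg
    have h2 := it_eq htab 3 (⟨0, by norm_num⟩ : Fin 1782)
    rw [← map_pow, h1, map_one] at h2
    have h3 : it 11 p20 3 0 = 0 := h2
    have h4 := o20
    rw [h3] at h4
    exact absurd h4 (by decide)
  · refine red ?_ ?_
    · rw [cmw_eq]
      exact pair_yZ (ly := [3, 4, 3, 4]) c36_54
    · rw [cmw_eq]
      exact pair_yzyZ (ly := [3, 4, 3, 4]) c36_42

/-- the same for a group isomorphic to `Suz` -/
theorem pair_iso {S : Type*} [Group S] (h : Spor.IsoSuz S) {g k : S} (hg : g ^ 3 = 1) (hg1 : g ≠ 1) (hk : k * k = 1)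
    (hk1 : k ≠ 1) : ∃ c e : S, e * k * e⁻¹ ∈ closure {g, c * g * c⁻¹} := by
  obtain ⟨i⟩ := h
  obtain ⟨c, e, h1⟩ := pair (g := i g) (k := i k) (by rw [← map_pow, hg, map_one])
    (fun h => hg1 (i.injective (by rw [h, map_one]))) (by rw [← map_mul, hk, map_one])
    (fun h => hk1 (i.injective (by rw [h, map_one])))
  refine ⟨i.symm c, i.symm e, ?_⟩
  have h5 := Subgroup.mem_map_of_mem i.symm.toMonoidHom h1
  rw [MonoidHom.map_closure, Set.image_pair] at h5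
  simp only [map_mul, map_inv, MulEquiv.coe_toMonoidHom, MulEquiv.symm_apply_apply] at h5
  exact h5

end Cfsg.Agent.H266.TC.SuzPair
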